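import Cfsg.Agent.Lib.U43.SevenPSU
import Cfsg.Agent.Lib.PSUBridge.Basic
import Cfsg.Agent.Lib.McLCov.Main
import Cfsg.Agent.Lib.U43Iso.Data

/-!
# The point stabiliser of `McL` on 275 points is `PSU₄(3)`

The orbit of length 112 of the stabiliser is matched with the totally isotropic lines of the Hermitian space, and the
two generators of the stabiliser with elements of `SU₄(3)`.  The orders agree, so this is an isomorphism.
-/

set_option autoImplicit false
set_option maxRecDepth 100000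
set_option linter.unusedSectionVars false
set_option linter.style.longLine false

namespace Cfsg.Agent.Lib.U43Iso

open Cfsg Subgroup Matrix
open Cfsg.Agent.Lib.Golay.Core Cfsg.Agent.Lib.U43.Seven Cfsg.Agent.Lib.PSUBridge
open Cfsg.Agent.Lib.U43Iso.Data
open _root_.Cfsg.Agent.Lib.PermComp _root_.Cfsg.Agent.Lib.PermComp.Core
open Cfsg.Agent.Lib.McLStab Cfsg.Agent.Lib.McLStab.Data

local notation "RR" => Rep 9 511 (Equiv.refl (Fin 275))

/-! ## Code-level tests -/

/-- The first vector of the line of a point. -/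
def lineA (y : ℕ) : ℕ := Nat.land (Nat.shiftRight TL (32 * y)) 65535
/-- The second vector of the line of a point. -/
def lineB (y : ℕ) : ℕ := Nat.land (Nat.shiftRight TL (32 * y + 16)) 65535

/-- A matrix times a vector. -/
def av (N V : ℕ) : ℕ := packV (mvi N V 0) (mvi N V 1) (mvi N V 2) (mvi N V 3)

/-- A combination, at one coordinate. -/
def cmb (s a t b j : ℕ) : ℕ := addC (mulC s (vv a j)) (mulC t (vv b j))

/-- `c` is in the span of `a` and `b`. -/
def spB (a b c : ℕ) : Bool :=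
  (List.range 9).any fun s => (List.range 9).any fun t =>
    Nat.beq (vv c 0) (cmb s a t b 0) && (Nat.beq (vv c 1) (cmb s a t b 1) &&
      (Nat.beq (vv c 2) (cmb s a t b 2) && Nat.beq (vv c 3) (cmb s a t b 3)))

/-- The line of the image of a point is the image of its line. -/
def genOK (N c : ℕ) : Bool :=
  allUpTo (fun y => Cfsg.Agent.Lib.Leech.Cert.forceN (av N (lineA y)) fun a' =>
    Cfsg.Agent.Lib.Leech.Cert.forceN (av N (lineB y)) fun b' =>
    Cfsg.Agent.Lib.Leech.Cert.forceN (app 9 511 c y) fun z =>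
    Cfsg.Agent.Lib.Leech.Cert.forceN (lineA z) fun a'' =>
    Cfsg.Agent.Lib.Leech.Cert.forceN (lineB z) fun b'' =>
    spB a' b' a'' && (spB a' b' b'' && (spB a'' b'' a' && spB a'' b'' b'))) 275

/-- The form on codes. -/
def hC2 (u v : ℕ) : ℕ :=
  addC (addC (addC (mulC (vv u 0) (frobC (vv v 0))) (mulC (vv u 1) (frobC (vv v 1))))
    (mulC (vv u 2) (frobC (vv v 2)))) (mulC (vv u 3) (frobC (vv v 3)))

/-- A witness that the line of `y` is not the line of `z`. -/
def sepB (y z : ℕ) : Bool :=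
  [lineA y, lineB y].any fun u => [lineA z, lineB z, 1, 16, 256, 4096].any fun v =>
    !(Nat.beq (hC2 u v) 0) && (Nat.beq (hC2 (lineA z) v) 0 && Nat.beq (hC2 (lineB z) v) 0)

/-- The lines of the 112 points are different from the others. -/
def sepOK (k : ℕ) : Bool :=
  allUpTo (fun y => Nat.beq (lineA y) 0 || allUpTo (fun z => Nat.beq y z || sepB y z) k) k

/-- The orbital graph. -/
def bG (y z : ℕ) : ℕ := Nat.land (Nat.shiftRight GG (275 * y + z)) 1

/-- A generator preserves the orbital graph. -/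
def autOK (c : ℕ) : Bool :=
  allUpTo (fun y => Cfsg.Agent.Lib.Leech.Cert.forceN (app 9 511 c y) fun y' =>
    allUpTo (fun z => Nat.beq (bG y' (app 9 511 c z)) (bG y z)) 275) 275

/-- The points of the base are separated by the 112 points. -/
def baseOK : Bool :=
  [1, 2, 3, 4, 5].all fun y => allUpTo (fun y' => Nat.beq y y' ||
    (List.range 275).any fun z => !(Nat.beq (lineA z) 0) && !(Nat.beq (bG y z) (bG y' z))) 275

theorem sepOK_true : sepOK 275 = true := by decide +kernel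
theorem baseOK_true : baseOK = true := by decide +kernel

def c1 : ℕ := h_gens.getD 0 0
def c2 : ℕ := h_gens.getD 1 0
theorem h_gens_eq : h_gens = [c1, c2] := by decide +kernel
theorem aut1 : autOK c1 = true := by decide +kernel
theorem aut2 : autOK c2 = true := by decide +kernel

def A1c : ℕ := A1pows.getD 1 0
def A3c : ℕ := A1pows.getD 3 0
def Abc : ℕ := Abpows.getD 1 0

theorem gen1 : genOK A1c c1 = true := by decide +kernel
theorem gen2 : genOK A2c c2 = true := by decide +kernel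

/-! Powers and orthogonality -/

theorem A1_pow : ∀ k < 7, mmB (A1pows.getD k 0) A1c (A1pows.getD (k + 1) 0) = true := by decide +kernel
theorem A1_0 : A1pows.getD 0 0 = Ic := by decide +kernel
theorem A1_7 : A1pows.getD 7 0 = Ic := by decide +kernel
theorem Ab_pow : ∀ k < 5, mmB (Abpows.getD k 0) Abc (Abpows.getD (k + 1) 0) = true := by decide +kernel
theorem Ab_0 : Abpows.getD 0 0 = Ic := by decide +kernel
theorem Ab_5 : Abpows.getD 5 0 = Ic := by decide +kernel
theorem A2_rel : mmB A3c A2c Abc = true := by decide +kernel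
theorem A1_orth : orthB A1c = true := by decide +kernel
theorem A2_orth : orthB A2c = true := by decide +kernel

/-! ## The field -/

section K

variable {K : Type*} [Field K] [Fintype K] (hK : Fintype.card K = 9)
variable {i : K} (hi : i * i = -1) (h3 : (3 : K) = 0)

include hi h3

theorem vv_pack : ∀ a < 9, ∀ b < 9, ∀ c < 9, ∀ d < 9, vv (packV a b c d) 0 = a ∧ vv (packV a b c d) 1 = b ∧
    vv (packV a b c d) 2 = c ∧ vv (packV a b c d) 3 = d := by
  intro a ha b hb c hc d hd
  have e1 : ∀ (n j : ℕ), vv n j = n / 2 ^ (4 * j) % 16 := by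
    intro n j
    unfold vv
    have := Nat.and_two_pow_sub_one_eq_mod (Nat.shiftRight n (4 * j)) 4
    rw [show (2 ^ 4 - 1 : ℕ) = 15 from rfl] at this
    show (Nat.shiftRight n (4 * j)) &&& 15 = _
    rw [this]
    show (n >>> (4 * j)) % 2 ^ 4 = _
    rw [Nat.shiftRight_eq_div_pow]
  rw [e1, e1, e1, e1]
  unfold packV
  norm_num
  omega

theorem toV_av (N V : ℕ) : toV i (av N V) = toK i N *ᵥ toV i V := by
  have hlt : ∀ a, mvi N V a < 9 := fun a => addC_lt _ _
  obtain ⟨k0, k1, k2, k3⟩ := vv_pack hi h3 _ (hlt 0) _ (hlt 1) _ (hlt 2) _ (hlt 3)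
  funext t
  rw [mv_toV hi h3]
  show φ i (vv (av N V) t.1) = _
  fin_cases t
  · show φ i (vv (av N V) 0) = _
    unfold av
    rw [k0]
  · show φ i (vv (av N V) 1) = _
    unfold av
    rw [k1]
  · show φ i (vv (av N V) 2) = _
    unfold av
    rw [k2]
  · show φ i (vv (av N V) 3) = _
    unfold av
    rw [k3]

theorem toV_apply (V : ℕ) (t : Fin 4) : toV i V t = φ i (vv V t.1) := rfl

theorem spB_sound {a b c : ℕ} (h : spB a b c = true) : toV i c ∈ (Sp (toV i a) (toV i b)).1 := by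
  unfold spB at h
  simp only [List.any_eq_true, Bool.and_eq_true] at h
  obtain ⟨s, -, t, -, h0, h1, h2, h3'⟩ := h
  refine ⟨φ i s, φ i t, ?_⟩
  have key : ∀ j, φ i (cmb s a t b j) = φ i s * φ i (vv a j) + φ i t * φ i (vv b j) := by
    intro j
    unfold cmb
    rw [φ_add hi h3, φ_mul hi h3, φ_mul hi h3]
  funext j
  simp only [Pi.add_apply, Pi.smul_apply, smul_eq_mul]
  fin_cases j
  · show φ i (vv c 0) = φ i s * φ i (vv a 0) + φ i t * φ i (vv b 0)
    rw [Nat.eq_of_beq_eq_true h0, key]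
  · show φ i (vv c 1) = φ i s * φ i (vv a 1) + φ i t * φ i (vv b 1)
    rw [Nat.eq_of_beq_eq_true h1, key]
  · show φ i (vv c 2) = φ i s * φ i (vv a 2) + φ i t * φ i (vv b 2)
    rw [Nat.eq_of_beq_eq_true h2, key]
  · show φ i (vv c 3) = φ i s * φ i (vv a 3) + φ i t * φ i (vv b 3)
    rw [Nat.eq_of_beq_eq_true h3', key]

theorem herm_code (u v : ℕ) : hermForm 4 K 3 (toV i u) (toV i v) = φ i (hC2 u v) := by
  unfold hermForm hC2
  rw [Fin.sum_univ_four]
  simp only [φ_add hi h3, φ_mul hi h3, φ_frob hi h3]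
  rfl

theorem herm_ne {u v : ℕ} (h : (!(Nat.beq (hC2 u v) 0)) = true) : hermForm 4 K 3 (toV i u) (toV i v) ≠ 0 := by
  rw [herm_code hi h3]
  intro h0
  have h1 : φ i (hC2 u v) = φ i 0 := by rw [h0, φ_zero hi h3]
  have h2 : hC2 u v = 0 := φ_inj hi h3 (addC_lt _ _) (by norm_num) h1
  rw [h2] at h
  exact absurd h (by decide)

theorem herm_zero {u v : ℕ} (h : Nat.beq (hC2 u v) 0 = true) : hermForm 4 K 3 (toV i u) (toV i v) = 0 := by
  rw [herm_code hi h3, Nat.eq_of_beq_eq_true h, φ_zero hi h3]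

/-- The sets attached to the points. -/
def LL (i : K) (y : Fin 275) : ScSet 4 K := Sp (toV i (lineA y.1)) (toV i (lineB y.1))

/-- The element of `SU₄(3)` of a code. -/
theorem iso_of_orth {N : ℕ} (hN : orthB N = true) (u v : Fin 4 → K) :
    hermForm 4 K 3 (toK i N *ᵥ u) (toK i N *ᵥ v) = hermForm 4 K 3 u v := by
  have H := cube_add hi h3
  have key : ∀ b c : Fin 4, toK i N 0 b * (toK i N 0 c) ^ 3 + toK i N 1 b * (toK i N 1 c) ^ 3 + toK i N 2 b * (toK i N 2 c) ^ 3 +
      toK i N 3 b * (toK i N 3 c) ^ 3 = if b = c then 1 else 0 := by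
    intro b c
    have h1 := Nat.eq_of_beq_eq_true (allUpTo_iff.mp (allUpTo_iff.mp hN b.1 b.2) c.1 c.2)
    have h2 := congrArg (φ i) h1
    simp only [φ_add hi h3, φ_mul hi h3, φ_frob hi h3] at h2
    have h4 : φ i (if b.1 = c.1 then 1 else 0) = if b = c then 1 else 0 := by
      by_cases h : b = c
      · subst h
        simp [φ_one hi h3]
      · have : b.1 ≠ c.1 := fun h' => h (Fin.ext h')
        simp [h, this, φ_zero hi h3]
    rw [h4] at h2
    exact h2
  have h00 := key 0 0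
  have h01 := key 0 1
  have h02 := key 0 2
  have h03 := key 0 3
  have h10 := key 1 0
  have h11 := key 1 1
  have h12 := key 1 2
  have h13 := key 1 3
  have h20 := key 2 0
  have h21 := key 2 1
  have h22 := key 2 2
  have h23 := key 2 3
  have h30 := key 3 0
  have h31 := key 3 1
  have h32 := key 3 2
  have h33 := key 3 3
  simp only [Fin.isValue, Fin.reduceEq, if_false, if_true] at h00 h01 h02 h03 h10 h11 h12 h13 h20 h21 h22 h23 h30 h31 h32 h33
  generalize toK i N = X at *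
  simp only [hermForm, Matrix.mulVec, dotProduct, Fin.sum_univ_four, H, mul_pow]
  linear_combination u 0 * (v 0) ^ 3 * h00 + u 0 * (v 1) ^ 3 * h01 + u 0 * (v 2) ^ 3 * h02 + u 0 * (v 3) ^ 3 * h03 +
    u 1 * (v 0) ^ 3 * h10 + u 1 * (v 1) ^ 3 * h11 + u 1 * (v 2) ^ 3 * h12 + u 1 * (v 3) ^ 3 * h13 +
    u 2 * (v 0) ^ 3 * h20 + u 2 * (v 1) ^ 3 * h21 + u 2 * (v 2) ^ 3 * h22 + u 2 * (v 3) ^ 3 * h23 +
    u 3 * (v 0) ^ 3 * h30 + u 3 * (v 1) ^ 3 * h31 + u 3 * (v 2) ^ 3 * h32 + u 3 * (v 3) ^ 3 * h33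

include hK

theorem one_of_pow {m : ℕ} {d : K} (hm : Nat.Coprime m 8) (hd : d ^ m = 1) : d = 1 := by
  have hd0 : d ≠ 0 := by
    rintro rfl
    have hm0 : m ≠ 0 := by
      rintro rfl
      norm_num at hm
    rw [zero_pow hm0] at hd
    exact zero_ne_one hd
  have h8 : d ^ 8 = 1 := by
    have := FiniteField.pow_card_sub_one_eq_one d hd0
    rwa [hK] at this
  have h9 := (pow_gcd_eq_one (a := d) (m := m) (n := 8)).2 ⟨hd, h8⟩
  rw [Nat.Coprime.gcd_eq_one hm, pow_one] at h9
  exact h9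

theorem pow_list {L : List ℕ} {A : ℕ} {m : ℕ} (h : ∀ k < m, mmB (L.getD k 0) A (L.getD (k + 1) 0) = true)
    (h0 : L.getD 0 0 = Ic) {k : ℕ} (hk : k ≤ m) : toK i (L.getD k 0) = toK i A ^ k := by
  induction k with
  | zero =>
    rw [pow_zero, h0, id_toK hi h3]
  | succ k ih =>
    rw [pow_succ, ← ih (by omega), mm_toK hi h3 (h k (by omega))]

theorem det_A1 : (toK i A1c).det = 1 := by
  refine one_of_pow hK hi h3 (m := 7) (by norm_num) ?_
  rw [← Matrix.det_pow, ← pow_list hK hi h3 A1_pow A1_0 le_rfl, A1_7, id_toK hi h3, Matrix.det_one]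

theorem det_Ab : (toK i Abc).det = 1 := by
  refine one_of_pow hK hi h3 (m := 5) (by norm_num) ?_
  rw [← Matrix.det_pow, ← pow_list hK hi h3 Ab_pow Ab_0 le_rfl, Ab_5, id_toK hi h3, Matrix.det_one]

theorem det_A2 : (toK i A2c).det = 1 := by
  have h1 := congrArg Matrix.det (mm_toK hi h3 A2_rel)
  rw [Matrix.det_mul, det_Ab hK hi h3] at h1
  have h2 : toK i A3c = toK i A1c ^ 3 := pow_list hK hi h3 A1_pow A1_0 (by norm_num)
  rw [h2, Matrix.det_pow, det_A1 hK hi h3, one_pow, one_mul] at h1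
  exact h1

/-- The first element of `SU₄(3)`. -/
noncomputable def x1 : ↥(SU 4 K 3) :=
  ⟨⟨toK i A1c, det_A1 hK hi h3⟩, iso_of_orth hi h3 A1_orth⟩

/-- The second element of `SU₄(3)`. -/
noncomputable def x2 : ↥(SU 4 K 3) :=
  ⟨⟨toK i A2c, det_A2 hK hi h3⟩, iso_of_orth hi h3 A2_orth⟩

theorem hq : Fintype.card K = 3 ^ 2 := by rw [hK]; norm_num

omit hK in
theorem gen_sound {N c : ℕ} {h : Equiv.Perm (Fin 275)} {x : ↥(SU 4 K 3)}
    (hx : ((x.1 : Matrix.SpecialLinearGroup (Fin 4) K) : Matrix (Fin 4) (Fin 4) K) = toK i N)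
    (hrep : RR c h) (hok : genOK N c = true) (y : Fin 275) :
    LL i (h y) = actS x (LL i y) := by
  have h1 := allUpTo_iff.1 hok y.1 y.2
  simp only [Cfsg.Agent.Lib.Leech.Cert.forceN_eq, Bool.and_eq_true] at h1
  obtain ⟨e1, e2, e3, e4⟩ := h1
  have hz : app 9 511 c y.1 = (h y).1 := hrep y
  rw [hz] at e1 e2 e3 e4
  have hact : ∀ V, actV x (toV i V) = toV i (av N V) := by
    intro V
    rw [toV_av hi h3]
    show ((x.1 : Matrix.SpecialLinearGroup (Fin 4) K) : Matrix (Fin 4) (Fin 4) K).mulVec _ = _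
    rw [hx]
  unfold LL
  rw [actS_Sp, hact, hact]
  exact Sp_eq (spB_sound hi h3 e1) (spB_sound hi h3 e2) (spB_sound hi h3 e3) (spB_sound hi h3 e4)

omit hK in
/-- The lines separate. -/
theorem LL_ne {y z : Fin 275} (hy : lineA y.1 ≠ 0) (hne : y ≠ z) : LL i y ≠ LL i z := by
  intro he
  have h1 := allUpTo_iff.1 sepOK_true y.1 y.2
  have h2 : allUpTo (fun z => Nat.beq y.1 z || sepB y.1 z) 275 = true := by
    cases h0 : Nat.beq (lineA y.1) 0 with
    | true => exact absurd (Nat.eq_of_beq_eq_true h0) hy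
    | false =>
      rw [h0] at h1
      simpa using h1
  have h3' := allUpTo_iff.1 h2 z.1 z.2
  have h4 : sepB y.1 z.1 = true := by
    cases h0 : Nat.beq y.1 z.1 with
    | true => exact absurd (Fin.ext (Nat.eq_of_beq_eq_true h0)) hne
    | false =>
      rw [h0] at h3'
      simpa using h3'
  unfold sepB at h4
  simp only [List.any_eq_true, Bool.and_eq_true] at h4
  obtain ⟨u, hu, v, -, e1, e2, e3⟩ := h4
  have hmem : toV i u ∈ (LL i z).1 := by
    rw [← he]
    simp only [List.mem_cons, List.not_mem_nil, or_false] at hu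
    rcases hu with rfl | rfl
    · exact left_mem_Sp _ _
    · exact right_mem_Sp _ _
  exact herm_ne hi h3 e1 (herm_of_mem_Sp hmem (herm_zero hi h3 e2) (herm_zero hi h3 e3))

end K

/-! ## The orbital graph -/

/-- The automorphisms of the orbital graph. -/
def autG : Subgroup (Equiv.Perm (Fin 275)) where
  carrier := {b | ∀ y z : Fin 275, bG (b y).1 (b z).1 = bG y.1 z.1}
  mul_mem' := by
    intro a b ha hb y z
    show bG (a (b y)).1 (a (b z)).1 = _
    rw [ha, hb]
  one_mem' := fun _ _ => rfl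
  inv_mem' := by
    intro a ha y z
    have := ha (a⁻¹ y) (a⁻¹ z)
    have h1 : ∀ w : Fin 275, a (a⁻¹ w) = w := fun w => by simp
    rw [h1, h1] at this
    exact this.symm

theorem aut_of_rep {c : ℕ} {h : Equiv.Perm (Fin 275)} (hrep : RR c h) (hok : autOK c = true) : h ∈ autG := by
  intro y z
  have h1 := allUpTo_iff.1 hok y.1 y.2
  simp only [Cfsg.Agent.Lib.Leech.Cert.forceN_eq] at h1
  have h2 := Nat.eq_of_beq_eq_true (allUpTo_iff.1 h1 z.1 z.2)
  have e1 : app 9 511 c y.1 = (h y).1 := hrep y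
  have e2 : app 9 511 c z.1 = (h z).1 := hrep z
  rw [e1, e2] at h2
  exact h2

theorem H1_le_aut : H1 ≤ autG := by
  refine (closure_le _).2 ?_
  rintro g ⟨c, hc, hg⟩
  rw [h_gens_eq] at hc
  simp only [List.mem_cons, List.not_mem_nil, or_false] at hc
  rcases hc with rfl | rfl
  · exact aut_of_rep hg aut1
  · exact aut_of_rep hg aut2

/-- An element fixing the 112 points is trivial. -/
theorem eq_one_of_fix {b : Equiv.Perm (Fin 275)} (hb : b ∈ H1) (hfix : ∀ y : Fin 275, lineA y.1 ≠ 0 → b y = y) : b = 1 := by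
  have hbase := Cfsg.Agent.Lib.McLCov.hbase
  rw [Cfsg.Agent.Lib.McLCov.Checks.gens_eq] at hbase
  apply hbase b hb
  intro y hy
  by_contra hne
  have h1 : y.1 ∈ [1, 2, 3, 4, 5] := by simpa using hy
  have h2 := (List.all_eq_true.1 baseOK_true) y.1 h1
  have h3 := allUpTo_iff.1 h2 (b y).1 (b y).2
  have h4 : (List.range 275).any (fun z => !(Nat.beq (lineA z) 0) && !(Nat.beq (bG y.1 z) (bG (b y).1 z))) = true := by
    cases h0 : Nat.beq y.1 (b y).1 with
    | true => exact absurd (Fin.ext (Nat.eq_of_beq_eq_true h0)).symm hne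
    | false =>
      rw [h0] at h3
      simpa using h3
  simp only [List.any_eq_true, Bool.and_eq_true, List.mem_range] at h4
  obtain ⟨z, hz, e1, e2⟩ := h4
  have h5 : lineA z ≠ 0 := by
    intro h0
    rw [h0] at e1
    exact absurd e1 (by decide)
  have h6 : b ⟨z, hz⟩ = ⟨z, hz⟩ := hfix ⟨z, hz⟩ h5
  have h7 := H1_le_aut hb y ⟨z, hz⟩
  rw [h6] at h7
  simp only at h7
  rw [h7] at e2
  simp at e2

section Final

variable {K : Type*} [Field K] [Fintype K] (hK : Fintype.card K = 9)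
include hK

theorem iso_H1 : Nonempty (H1 ≃* PSU 4 K 3) := by
  classical
  obtain ⟨i, hi⟩ := Cfsg.Agent.Lib.U43.SevenPSU.exists_i hK
  have h3 := Cfsg.Agent.Lib.U43.SevenPSU.three_zero hK
  have hq : Fintype.card K = 3 ^ 2 := by rw [hK]; norm_num
  have hfin : Finite (PSU 4 K 3) := inferInstance
  obtain ⟨g1, -, hg1⟩ := gens_rep c1 (by rw [h_gens_eq]; simp)
  obtain ⟨g2, -, hg2⟩ := gens_rep c2 (by rw [h_gens_eq]; simp)
  let ρ := rho hq (n := 4) (by norm_num)
  let S : Set (PSU 4 K 3 × Equiv.Perm (Fin 275)) :=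
    {(QuotientGroup.mk (x1 hK hi h3), g1), (QuotientGroup.mk (x2 hK hi h3), g2)}
  refine bridge ρ (LL i) H1 S ?_ ?_ ?_ ?_
  · intro s hs y
    rcases hs with rfl | hs
    · exact gen_sound hi h3 (N := A1c) rfl hg1 gen1 y
    · rw [Set.mem_singleton_iff] at hs
      subst hs
      exact gen_sound hi h3 (N := A2c) rfl hg2 gen2 y
  · show Subgroup.closure _ = Subgroup.closure _
    congr 1
    ext g
    constructor
    · rintro ⟨c, hc, hg⟩
      rw [h_gens_eq] at hc
      simp only [List.mem_cons, List.not_mem_nil, or_false] at hc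
      rcases hc with rfl | rfl
      · exact ⟨_, Or.inl rfl, (hg.unique hg1).symm⟩
      · exact ⟨_, Or.inr rfl, (hg.unique hg2).symm⟩
    · rintro ⟨s, hs, rfl⟩
      rcases hs with rfl | hs
      · exact ⟨c1, by rw [h_gens_eq]; simp, hg1⟩
      · rw [Set.mem_singleton_iff] at hs
        subst hs
        exact ⟨c2, by rw [h_gens_eq]; simp, hg2⟩
  · intro b hb hL
    apply eq_one_of_fix hb
    intro y hy
    by_contra hne
    exact LL_ne hi h3 hy (Ne.symm hne) (hL y).symm
  · rw [Cfsg.Agent.Lib.McLCov.card_H1, Cfsg.Agent.Lib.U43.SevenPSU.card_PSU43 hK]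

end Final

end Cfsg.Agent.Lib.U43Iso
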