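import Cfsg.Agent.Lib.McLCov.Main

/-!
# A point stabiliser in `McL`, as a stabiliser of three vectors
-/

set_option autoImplicit false
set_option maxRecDepth 100000

namespace Cfsg.Agent.Lib.U43Iso

open Cfsg Subgroup MulAction
open Cfsg.Agent.Lib.Golay.Core Cfsg.Agent.Lib.Leech.Basic Cfsg.Agent.Lib.Leech.Lat
  Cfsg.Agent.Lib.Leech.Vec Cfsg.Agent.Lib.Leech.Reach Cfsg.Agent.Lib.Leech.Word
  Cfsg.Agent.Lib.Leech.Cert Cfsg.Agent.Lib.Leech.Packed
  Cfsg.Agent.Lib.Leech.ConfigB Cfsg.Agent.Lib.Leech.ConfigM Cfsg.Agent.Lib.Leech.CertC275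
  Cfsg.Agent.Lib.LeechP Cfsg.Agent.Lib.LeechP.McL Cfsg.Agent.Lib.McLStab Cfsg.Agent.Lib.Leech.CertData
  Cfsg.Agent.Lib.Leech.CertBase Cfsg.Agent.Lib.Leech.CertLev

/-- The stabiliser of the point `0` in the group `FixG R`. -/
def T0 : Subgroup (FixG R) where
  carrier := {f | f.1 • (num.equiv 0).1 = (num.equiv 0).1}
  mul_mem' := by
    intro a b ha hb
    show (a.1 * b.1) • _ = _
    rw [mul_smul, show b.1 • (num.equiv 0).1 = _ from hb, show a.1 • (num.equiv 0).1 = _ from ha]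
  one_mem' := one_smul _ _
  inv_mem' := by
    intro a ha
    show a.1⁻¹ • _ = _
    rw [inv_smul_eq_iff, show a.1 • (num.equiv 0).1 = _ from ha]

theorem phi_zero_iff (f : FixG R) : f ∈ T0 ↔ num.phi f 0 = 0 := by
  have h1 := num.phi_spec f 0
  constructor
  · intro h
    have h2 : (num.equiv (num.phi f 0)).1 = (num.equiv 0).1 := by
      rw [← h1]
      exact h
    exact num.equiv.injective (Subtype.ext h2)
  · intro h
    rw [h] at h1
    exact h1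

theorem T0_map : T0.map num.phi = H1 := by
  ext p
  constructor
  · rintro ⟨f, hf, rfl⟩
    exact hstab_of_card Cfsg.Agent.Lib.McLCov.card_H1 _ ⟨f, rfl⟩ ((phi_zero_iff f).1 hf)
  · intro hp
    obtain ⟨f, rfl⟩ := H1_le hp
    exact ⟨f, (phi_zero_iff f).2 (H1_fix _ hp), rfl⟩

theorem T0_iso : Nonempty (T0 ≃* H1) :=
  ⟨(T0.equivMapOfInjective num.phi phi_inj).trans (MulEquiv.subgroupCongr T0_map)⟩

/-- The stabiliser of three vectors. -/
theorem stab_iso (u v x : L) (hu : sqNorm (u : GolayPt → ℤ) = 48) (hv : v ∈ Xu u) (hx : x ∈ X275 u v) :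
    Nonempty (↥(stabilizer Co0 u ⊓ stabilizer Co0 v ⊓ stabilizer Co0 x) ≃* T0) := by
  obtain ⟨t, ht⟩ := exists_to_uv hu hv
  have hw := (mem_C275 ht hu x).1 hx
  let w : XX conds := ⟨t • x, hw⟩
  obtain ⟨g, hgPP, -, hg0⟩ := hTT (num.equiv.symm w)
  obtain ⟨f, rfl⟩ := hgPP
  have hf : f.1 • (num.equiv 0).1 = t • x := by
    have h1 := num.phi_spec f 0
    rw [hg0, Equiv.apply_symm_apply] at h1
    exact h1
  let s : Co0 := f.1⁻¹ * t
  have hs : Maps s [(v, nV1), (u, nU0)] :=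
    ht.mul (R := R) (by simp [R]) (FixG R |>.inv_mem f.2)
  have hsx : s • x = (num.equiv 0).1 := by
    show (f.1⁻¹ * t) • x = _
    rw [mul_smul, inv_smul_eq_iff, hf]
  have h1 : ∀ g : ↥(stabilizer Co0 u ⊓ stabilizer Co0 v ⊓ stabilizer Co0 x),
      s * g.1 * s⁻¹ ∈ FixG R := by
    rintro ⟨g, ⟨hg1, hg2⟩, hg3⟩
    exact (mem_FixG_two hs g).2 ⟨hg2, hg1⟩
  have h2 : ∀ f' : ↥T0, s⁻¹ * f'.1.1 * s ∈ stabilizer Co0 u ⊓ stabilizer Co0 v ⊓ stabilizer Co0 x := by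
    intro f'
    have key := (mem_FixG_two hs (s⁻¹ * f'.1.1 * s)).1 (by
      have : s * (s⁻¹ * f'.1.1 * s) * s⁻¹ = f'.1.1 := by group
      rw [this]
      exact f'.1.2)
    refine ⟨⟨key.2, key.1⟩, ?_⟩
    show (s⁻¹ * f'.1.1 * s) • x = x
    rw [mul_smul, mul_smul, hsx, show f'.1.1 • (num.equiv 0).1 = _ from f'.2, ← hsx, inv_smul_smul]
  refine ⟨{ toFun := fun g => ⟨⟨s * g.1 * s⁻¹, h1 g⟩, ?_⟩
            invFun := fun f' => ⟨s⁻¹ * f'.1.1 * s, h2 f'⟩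
            left_inv := fun g => ?_
            right_inv := fun f' => ?_
            map_mul' := fun a b => ?_ }⟩
  · show (s * g.1 * s⁻¹) • (num.equiv 0).1 = _
    have hg3 : g.1 • x = x := g.2.2
    rw [← hsx, mul_smul, mul_smul, inv_smul_smul, hg3]
  · apply Subtype.ext
    show s⁻¹ * (s * g.1 * s⁻¹) * s = g.1
    group
  · apply Subtype.ext
    apply Subtype.ext
    show s * (s⁻¹ * f'.1.1 * s) * s⁻¹ = f'.1.1
    group
  · apply Subtype.ext
    apply Subtype.ext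
    show s * (a.1 * b.1) * s⁻¹ = (s * a.1 * s⁻¹) * (s * b.1 * s⁻¹)
    group

end Cfsg.Agent.Lib.U43Iso
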